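import Mathlib

/-!
Degrees of sharply k-transitive groups, `k ≥ 4`, by counting in the centralizer of an involution.
-/

set_option autoImplicit false
set_option maxHeartbeats 1000000

namespace Cfsg.Agent.SharplyTrans

universe u v

/-- Sharp transitivity on injective `k`-tuples. -/
structure Sharp (G : Type u) (Ω : Type v) [Group G] [MulAction G Ω] (k : ℕ) : Prop where
  move : ∀ x y : Fin k → Ω, Function.Injective x → Function.Injective y → ∃ g : G, ∀ i, g • x i = y i
  uniq : ∀ g h : G, ∀ x : Fin k → Ω, Function.Injective x → (∀ i, g • x i = h • x i) → g = h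

variable {G : Type u} {Ω : Type v} [Group G] [MulAction G Ω]

theorem sharp_of {k : ℕ} (hk : MulAction.IsMultiplyPretransitive G Ω k)
    (hs : ∀ x : Fin k ↪ Ω, MulAction.stabilizer G x = ⊥) : Sharp G Ω k where
  move x y hx hy := by
    obtain ⟨g, hg⟩ := MulAction.exists_smul_eq G (⟨x, hx⟩ : Fin k ↪ Ω) ⟨y, hy⟩
    exact ⟨g, fun i => DFunLike.congr_fun hg i⟩
  uniq g h x hx hgh := by
    have : h⁻¹ * g ∈ MulAction.stabilizer G (⟨x, hx⟩ : Fin k ↪ Ω) := by
      rw [MulAction.mem_stabilizer_iff]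
      ext i
      show (h⁻¹ * g) • x i = x i
      rw [mul_smul, hgh i, inv_smul_smul]
    rw [hs, Subgroup.mem_bot, inv_mul_eq_one] at this
    exact this.symm

theorem Sharp.eq_one {k : ℕ} (S : Sharp G Ω k) (g : G) (x : Fin k → Ω) (hx : Function.Injective x)
    (h : ∀ i, g • x i = x i) : g = 1 := S.uniq g 1 x hx (fun i => by rw [h i, one_smul])

theorem injective_of_nodup {k : ℕ} (x : Fin k → Ω) (h : (List.ofFn x).Nodup) :
    Function.Injective x := List.nodup_ofFn.1 h

/-- The fixed set of a nontrivial element has fewer than `k` points. -/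
theorem Sharp.fixed_small {k : ℕ} (S : Sharp G Ω k) {g : G} (hg : g ≠ 1) :
    {x : Ω | g • x = x}.Finite ∧ {x : Ω | g • x = x}.ncard < k := by
  by_contra h
  obtain ⟨t, ht, htc⟩ : ∃ t : Finset Ω, (↑t : Set Ω) ⊆ {x : Ω | g • x = x} ∧ t.card = k := by
    by_cases hf : {x : Ω | g • x = x}.Finite
    · obtain ⟨t, ht, htc⟩ := Finset.exists_subset_card_eq (s := hf.toFinset) (n := k) (by
        rw [← Set.ncard_eq_toFinset_card _ hf]
        push Not at h
        exact h hf)
      exact ⟨t, fun x hx => hf.mem_toFinset.1 (ht hx), htc⟩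
    · exact Set.Infinite.exists_subset_card_eq hf k
  exact hg (S.eq_one g (fun i => ((t.equivFinOfCardEq htc).symm i : Ω))
    (Subtype.coe_injective.comp (Equiv.injective _))
    (fun i => ht ((t.equivFinOfCardEq htc).symm i).2))

/-- The stabilizer of a point is sharply transitive on the other points. -/
theorem Sharp.stabilizer {k : ℕ} (S : Sharp G Ω (k + 1)) (a : Ω) :
    Sharp (MulAction.stabilizer G a) (SubMulAction.ofStabilizer G a) k where
  move x y hx hy := by
    have hinj : ∀ z : Fin k → SubMulAction.ofStabilizer G a, Function.Injective z →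
        Function.Injective (Fin.cons a (fun i => ((z i : Ω))) : Fin (k + 1) → Ω) := by
      intro z hz
      rw [Fin.cons_injective_iff]
      exact ⟨fun ⟨i, hi⟩ => (z i).2 hi, Subtype.coe_injective.comp hz⟩
    obtain ⟨g, hg⟩ := S.move _ _ (hinj x hx) (hinj y hy)
    have h0 : g • a = a := by simpa using hg 0
    refine ⟨⟨g, h0⟩, fun i => Subtype.ext ?_⟩
    have := hg i.succ
    simp only [Fin.cons_succ] at this
    exact this
  uniq g h x hx hgh := by
    refine Subtype.ext (S.uniq g h (Fin.cons a fun i => ((x i : Ω))) ?_ ?_)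
    · rw [Fin.cons_injective_iff]
      exact ⟨fun ⟨i, hi⟩ => (x i).2 hi, Subtype.coe_injective.comp hx⟩
    · intro i
      induction i using Fin.cases with
      | zero => simp only [Fin.cons_zero]; exact g.2.trans h.2.symm
      | succ i => simp only [Fin.cons_succ]; exact congrArg Subtype.val (hgh i)

theorem Sharp.card_eq {k : ℕ} (S : Sharp G Ω k) [Finite Ω] (hk : k ≤ Nat.card Ω) :
    Nat.card G = (Nat.card Ω).descFactorial k := by
  classical
  haveI : Fintype Ω := Fintype.ofFinite _
  rw [Nat.card_eq_fintype_card] at hk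
  obtain ⟨x⟩ : Nonempty (Fin k ↪ Ω) :=
    Function.Embedding.nonempty_of_card_le (by rwa [Fintype.card_fin])
  have e : Nat.card G = Nat.card (Fin k ↪ Ω) :=
    Nat.card_congr (Equiv.ofBijective (fun g : G => g • x) ⟨fun g h e =>
      S.uniq g h x x.injective (fun i => DFunLike.congr_fun e i), fun y => by
      obtain ⟨g, hg⟩ := S.move x y x.injective y.injective
      exact ⟨g, Function.Embedding.ext hg⟩⟩)
  rw [e, Nat.card_eq_fintype_card, Fintype.card_embedding_eq, Fintype.card_fin,
    Nat.card_eq_fintype_card]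

theorem smul_mem_fixed {g u : G} (h : g * u = u * g) {x : Ω} (hx : u • x = x) :
    u • (g • x) = g • x := by rw [← mul_smul, ← h, mul_smul, hx]

theorem even_moved (u : G) (hu : u * u = 1) [Finite Ω] :
    Nat.card Ω ≡ {x : Ω | u • x = x}.ncard [MOD 2] := by
  classical
  haveI : Fintype Ω := Fintype.ofFinite _
  have hinv : Function.Involutive (fun x : Ω => u • x) := fun x => by
    show u • u • x = x
    rw [← mul_smul, hu, one_smul]
  have h := Equiv.Perm.card_compl_support_modEq (p := 2) (n := 1)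
    (σ := hinv.toPerm) (Equiv.ext fun x => by simp [pow_two, hinv x])
  have hset : {x : Ω | u • x = x}.ncard = hinv.toPerm.supportᶜ.card := by
    rw [Set.ncard_eq_toFinset_card']
    congr 1
    ext x
    simp
  rw [hset, Nat.card_eq_fintype_card]
  exact h.symm

/-- The count behind Tits' theorem on sharply 4-transitive groups. -/
theorem four (S : Sharp G Ω 4) (hne : Nonempty (Fin 4 ↪ Ω)) :
    Finite Ω ∧ (Nat.card Ω ≤ 6 ∨ Nat.card Ω = 11) := by
  classical
  obtain ⟨e⟩ := hne
  obtain ⟨u, hu⟩ := S.move e ![e 1, e 0, e 2, e 3] e.injective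
    (injective_of_nodup _ (by simp [List.ofFn_succ, e.injective.eq_iff]))
  have hua : u • e 0 = e 1 := hu 0
  have hub : u • e 1 = e 0 := hu 1
  have huc : u • e 2 = e 2 := hu 2
  have hud : u • e 3 = e 3 := hu 3
  have hu2 : u * u = 1 := S.eq_one _ e e.injective (fun i => by
    fin_cases i <;> simp [mul_smul, hua, hub, huc, hud])
  have hu1 : u ≠ 1 := fun h => by
    have := hua
    rw [h, one_smul] at this
    exact absurd (e.injective this) (by decide)
  set F := {x : Ω | u • x = x} with hF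
  obtain ⟨hFfin, hF4⟩ := S.fixed_small hu1
  change F.Finite at hFfin
  change F.ncard < 4 at hF4
  set M := {x : Ω | u • x ≠ x ∧ x ≠ e 0 ∧ x ≠ e 1} with hM
  have huu : ∀ x : Ω, u • u • x = x := fun x => by rw [← mul_smul, hu2, one_smul]
  have hab : e 0 ≠ e 1 := fun h => absurd (e.injective h) (by decide)
  have hF2 : 2 ≤ F.ncard := by
    rw [← Set.ncard_pair (show e 2 ≠ e 3 from fun h => absurd (e.injective h) (by decide))]
    refine Set.ncard_le_ncard ?_ hFfin
    rintro x (rfl | rfl)
    exacts [huc, hud]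
  by_cases hMe : M = ∅
  · have huniv : (Set.univ : Set Ω) ⊆ F ∪ {e 0, e 1} := by
      intro x _
      by_contra hx
      simp only [Set.mem_union, Set.mem_insert_iff, Set.mem_singleton_iff, not_or] at hx
      exact Set.eq_empty_iff_forall_notMem.1 hMe x ⟨hx.1, hx.2.1, hx.2.2⟩
    haveI : Finite Ω :=
      Set.finite_univ_iff.1 ((hFfin.union (Set.toFinite _)).subset huniv)
    refine ⟨this, Or.inl ?_⟩
    have h1 := Set.ncard_le_ncard huniv (hFfin.union (Set.toFinite _))
    have h2 := Set.ncard_union_le F {e 0, e 1}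
    rw [Set.ncard_univ] at h1
    rw [Set.ncard_pair hab] at h2
    omega
  obtain ⟨c, hc, hca, hcb⟩ := Set.nonempty_iff_ne_empty.2 hMe
  have hmem : ∀ d ∈ M, u • d ∈ M := by
    rintro d ⟨hd, hda, hdb⟩
    refine ⟨fun h => hd ?_, fun h => hdb ?_, fun h => hda ?_⟩
    · exact (MulAction.injective u) h
    · rw [← hua, ← h, huu]
    · rw [← hub, ← h, huu]
  have hquad : ∀ d ∈ M, Function.Injective ![e 0, e 1, d, u • d] := by
    intro d hd
    obtain ⟨hd', hda, hdb⟩ := hd
    obtain ⟨-, hda', hdb'⟩ := hmem d ⟨hd', hda, hdb⟩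
    exact injective_of_nodup _ (by
      simp [List.ofFn_succ, hab, Ne.symm hda, Ne.symm hdb, Ne.symm hda', Ne.symm hdb', Ne.symm hd'])
  let L : Subgroup G := Subgroup.centralizer {u} ⊓ MulAction.stabilizer G (e 0)
  have hLc : ∀ g : G, g ∈ L ↔ g * u = u * g ∧ g • e 0 = e 0 := fun g => by
    simp [L, Subgroup.mem_centralizer_singleton_iff, eq_comm]
  have hLb : ∀ g ∈ L, g • e 1 = e 1 := fun g hg => by
    obtain ⟨h1, h2⟩ := (hLc g).1 hg
    rw [← hua, ← mul_smul, h1, mul_smul, h2]
  -- commuting from agreement on four points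
  have hcomm : ∀ (g : G) (x : Fin 4 → Ω), Function.Injective x →
      (∀ i, g • u • x i = u • g • x i) → g * u = u * g := fun g x hx h =>
    S.uniq _ _ x hx (fun i => by rw [mul_smul, mul_smul]; exact h i)
  let toM : L → M := fun g => ⟨(g : G) • c, by
    obtain ⟨h1, h2⟩ := (hLc g).1 g.2
    refine ⟨fun h => hc ?_, fun h => hca ?_, fun h => hcb ?_⟩
    · apply MulAction.injective (g : G)
      show (g : G) • u • c = (g : G) • c
      rw [← mul_smul, h1, mul_smul, h]
    · exact MulAction.injective (g : G) (h.trans h2.symm)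
    · exact MulAction.injective (g : G) (h.trans (hLb g g.2).symm)⟩
  have htoM : Function.Bijective toM := by
    constructor
    · intro g h e'
      have e'' : (g : G) • c = (h : G) • c := congrArg Subtype.val e'
      refine Subtype.ext (S.uniq _ _ _ (hquad c ⟨hc, hca, hcb⟩) fun i => ?_)
      have hg := (hLc g).1 g.2
      have hh := (hLc h).1 h.2
      fin_cases i
      · exact hg.2.trans hh.2.symm
      · exact (hLb g g.2).trans (hLb h h.2).symm
      · exact e''
      · show (g : G) • u • c = (h : G) • u • c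
        rw [← mul_smul, ← mul_smul, hg.1, hh.1, mul_smul, mul_smul, e'']
    · rintro ⟨d, hd⟩
      obtain ⟨g, hg⟩ := S.move _ _ (hquad c ⟨hc, hca, hcb⟩) (hquad d hd)
      have g0 : g • e 0 = e 0 := hg 0
      have g1 : g • e 1 = e 1 := hg 1
      have g2 : g • c = d := hg 2
      have g3 : g • (u • c) = u • d := hg 3
      refine ⟨⟨g, (hLc g).2 ⟨hcomm g _ (hquad c ⟨hc, hca, hcb⟩) fun i => ?_, g0⟩⟩, Subtype.ext g2⟩
      fin_cases i <;> simp [g0, g1, g2, g3, hua, hub, huu]
  -- the action on the fixed set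
  haveI : Finite F := hFfin.to_subtype
  let φ : L →* Equiv.Perm F :=
    { toFun := fun g =>
        { toFun := fun x => ⟨(g : G) • (x : Ω), smul_mem_fixed ((hLc g).1 g.2).1 x.2⟩
          invFun := fun x => ⟨((g⁻¹ : L) : G) • (x : Ω), smul_mem_fixed ((hLc _).1 (g⁻¹).2).1 x.2⟩
          left_inv := fun x => Subtype.ext (by simp)
          right_inv := fun x => Subtype.ext (by simp) }
      map_one' := Equiv.ext fun x => Subtype.ext (by simp)
      map_mul' := fun g h => Equiv.ext fun x => Subtype.ext (by simp [mul_smul]) }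
  have hcd : e 2 ≠ e 3 := fun h => absurd (e.injective h) (by decide)
  have hφ : Function.Injective φ := by
    rw [injective_iff_map_eq_one]
    intro g hg
    refine Subtype.ext (S.eq_one _ e e.injective fun i => ?_)
    have hfix : ∀ x, u • x = x → (g : G) • x = x := fun x hx =>
      congrArg Subtype.val (Equiv.ext_iff.1 hg ⟨x, hx⟩)
    fin_cases i
    · exact ((hLc g).1 g.2).2
    · exact hLb g g.2
    · exact hfix _ huc
    · exact hfix _ hud
  haveI : Finite L := Finite.of_injective φ hφ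
  haveI : Finite M := Finite.of_surjective toM htoM.2
  have hdiv : Nat.card M ∣ F.ncard.factorial := by
    rw [← Nat.card_congr (Equiv.ofBijective toM htoM), ← Nat.card_coe_set_eq, ← Nat.card_perm]
    exact Subgroup.card_dvd_of_injective φ hφ
  -- all ordered pairs of fixed points occur
  have hpairs : F.ncard * (F.ncard - 1) ≤ Nat.card M := by
    haveI : Fintype F := Fintype.ofFinite _
    have hq : ∀ p : Fin 2 ↪ F, Function.Injective ![e 0, e 1, (p 0 : Ω), (p 1 : Ω)] := by
      intro p
      have h01 : ((p 0 : Ω)) ≠ (p 1 : Ω) := fun h =>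
        absurd (p.injective (Subtype.ext h)) (by decide)
      have hn : ∀ x : F, (x : Ω) ≠ e 0 ∧ (x : Ω) ≠ e 1 := fun x => by
        refine ⟨fun h => hab ?_, fun h => hab ?_⟩
        · have h2 : u • (x : Ω) = x := x.2
          rw [h, hua] at h2; exact h2.symm
        · have h2 : u • (x : Ω) = x := x.2
          rw [h, hub] at h2; exact h2
      exact injective_of_nodup _ (by
        simp [List.ofFn_succ, hab, h01, (hn (p 0)).1.symm, (hn (p 0)).2.symm, (hn (p 1)).1.symm,
          (hn (p 1)).2.symm])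
    have hqe : Function.Injective ![e 0, e 1, e 2, e 3] :=
      injective_of_nodup _ (by simp [List.ofFn_succ, e.injective.eq_iff])
    have hex : ∀ p : Fin 2 ↪ F, ∃ g ∈ L, g • e 2 = p 0 ∧ g • e 3 = p 1 := by
      intro p
      obtain ⟨g, hg⟩ := S.move _ _ hqe (hq p)
      have g0 : g • e 0 = e 0 := hg 0
      have g1 : g • e 1 = e 1 := hg 1
      have g2 : g • e 2 = (p 0 : Ω) := hg 2
      have g3 : g • e 3 = (p 1 : Ω) := hg 3
      refine ⟨g, (hLc g).2 ⟨hcomm g _ hqe fun i => ?_, g0⟩, g2, g3⟩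
      have p0 : u • (p 0 : Ω) = p 0 := (p 0).2
      have p1 : u • (p 1 : Ω) = p 1 := (p 1).2
      fin_cases i <;> simp [g0, g1, g2, g3, hua, hub, huc, hud, p0, p1]
    choose f hfL hf using hex
    have hinj : Function.Injective fun p => (⟨f p, hfL p⟩ : L) := by
      intro p q h
      have h' : f p = f q := congrArg Subtype.val h
      ext i
      fin_cases i
      · show (p 0 : Ω) = q 0
        rw [← (hf p).1, ← (hf q).1, h']
      · show (p 1 : Ω) = q 1
        rw [← (hf p).2, ← (hf q).2, h']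
    have := Nat.card_le_card_of_injective _ hinj
    rw [Nat.card_congr (Equiv.ofBijective toM htoM), Nat.card_eq_fintype_card,
      Fintype.card_embedding_eq, Fintype.card_fin, ← Nat.card_eq_fintype_card,
      Nat.card_coe_set_eq] at this
    simpa [Nat.descFactorial_succ, mul_comm] using this
  have huniv : (Set.univ : Set Ω) = F ∪ {e 0, e 1} ∪ M := by
    ext x
    simp only [hF, hM, Set.mem_univ, Set.mem_union, Set.mem_setOf_eq, Set.mem_insert_iff,
      Set.mem_singleton_iff, true_iff]
    tauto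
  have hMfin : M.Finite := Set.finite_coe_iff.1 ‹_›
  haveI hΩ : Finite Ω :=
    Set.finite_univ_iff.1 (huniv ▸ (hFfin.union (Set.toFinite _)).union hMfin)
  refine ⟨hΩ, ?_⟩
  have hd1 : Disjoint F ({e 0, e 1} : Set Ω) := by
    rw [Set.disjoint_left]
    rintro x hx (rfl | rfl)
    · exact hab (hua.symm.trans hx).symm
    · exact hab (hub.symm.trans hx)
  have hd2 : Disjoint (F ∪ {e 0, e 1}) M := by
    rw [Set.disjoint_left]
    rintro x (hx | hx) hx'
    · exact hx'.1 hx
    · rcases hx with rfl | rfl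
      exacts [hx'.2.1 rfl, hx'.2.2 rfl]
  have hcard : Nat.card Ω = F.ncard + 2 + Nat.card M := by
    rw [← Set.ncard_univ, huniv, Set.ncard_union_eq hd2 ((hFfin.union (Set.toFinite _))) hMfin,
      Set.ncard_union_eq hd1 hFfin (Set.toFinite _), Set.ncard_pair hab, Nat.card_coe_set_eq]
  have hpar := even_moved (Ω := Ω) u hu2
  rw [← hF, hcard, Nat.ModEq] at hpar
  rw [Nat.card_coe_set_eq] at hdiv hpairs hpar hcard
  obtain h | h : F.ncard = 2 ∨ F.ncard = 3 := by omega
  · rw [h] at hdiv hpairs hpar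
    have := Nat.le_of_dvd (by decide) hdiv
    norm_num at this
    omega
  · rw [h] at hdiv hpairs hpar
    have := Nat.le_of_dvd (by decide) hdiv
    norm_num [Nat.factorial] at this hpairs
    omega

theorem five (S : Sharp G Ω 5) [Finite Ω] (h5 : 5 ≤ Nat.card Ω) :
    Nat.card Ω ≤ 7 ∨ Nat.card Ω = 12 := by
  classical
  haveI : Fintype Ω := Fintype.ofFinite _
  obtain ⟨a⟩ : Nonempty Ω := by
    rw [← Fintype.card_pos_iff, ← Nat.card_eq_fintype_card]; omega
  have hc : Nat.card (SubMulAction.ofStabilizer G a) = Nat.card Ω - 1 := by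
    show Nat.card ({a}ᶜ : Set Ω) = _
    rw [Nat.card_coe_set_eq, Set.ncard_compl, Set.ncard_singleton]
  haveI : Finite (SubMulAction.ofStabilizer G a) := inferInstanceAs (Finite ({a}ᶜ : Set Ω))
  haveI : Fintype (SubMulAction.ofStabilizer G a) := Fintype.ofFinite _
  obtain ⟨-, h | h⟩ := four (S.stabilizer a) (Function.Embedding.nonempty_of_card_le (by
    rw [Fintype.card_fin, ← Nat.card_eq_fintype_card, hc]; omega))
  · omega
  · omega

/-- There is no sharply 6-transitive group of degree 13. -/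
theorem not_six_thirteen (S : Sharp G Ω 6) [Finite Ω] (h13 : Nat.card Ω = 13) : False := by
  classical
  haveI : Fintype Ω := Fintype.ofFinite _
  have hcΩ : Fintype.card Ω = 13 := by rw [← Nat.card_eq_fintype_card, h13]
  obtain ⟨e⟩ : Nonempty (Fin 6 ↪ Ω) :=
    Function.Embedding.nonempty_of_card_le (by rw [Fintype.card_fin, hcΩ]; omega)
  obtain ⟨u, hu⟩ := S.move e ![e 1, e 0, e 2, e 3, e 4, e 5] e.injective
    (injective_of_nodup _ (by simp [List.ofFn_succ, e.injective.eq_iff]))
  have hua : u • e 0 = e 1 := hu 0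
  have hub : u • e 1 = e 0 := hu 1
  have huc : u • e 2 = e 2 := hu 2
  have hud : u • e 3 = e 3 := hu 3
  have hue : u • e 4 = e 4 := hu 4
  have huf : u • e 5 = e 5 := hu 5
  have hu2 : u * u = 1 := S.eq_one _ e e.injective (fun i => by
    fin_cases i <;> simp [mul_smul, hua, hub, huc, hud, hue, huf])
  have huu : ∀ x : Ω, u • u • x = x := fun x => by rw [← mul_smul, hu2, one_smul]
  have hab : e 0 ≠ e 1 := fun h => absurd (e.injective h) (by decide)
  have hu1 : u ≠ 1 := fun h => hab (by have := hua; rwa [h, one_smul] at this)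
  set F := {x : Ω | u • x = x} with hF
  obtain ⟨hFfin, hF6⟩ := S.fixed_small hu1
  change F.Finite at hFfin
  change F.ncard < 6 at hF6
  have hpar := even_moved (Ω := Ω) u hu2
  rw [← hF, h13, Nat.ModEq] at hpar
  have hF4 : 4 ≤ F.ncard := by
    have h4 : (({e 2, e 3, e 4, e 5} : Finset Ω) : Set Ω).ncard = 4 := by
      rw [Set.ncard_coe_finset]
      simp [e.injective.eq_iff]
    rw [← h4]
    refine Set.ncard_le_ncard ?_ hFfin
    intro x hx
    simp only [Finset.coe_insert, Finset.coe_singleton, Set.mem_insert_iff,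
      Set.mem_singleton_iff] at hx
    rcases hx with rfl | rfl | rfl | rfl
    exacts [huc, hud, hue, huf]
  have hF5 : F.ncard = 5 := by omega
  set M : Set Ω := (F ∪ {e 0, e 1})ᶜ with hM
  have hMc : M.ncard = 6 := by
    rw [hM, Set.ncard_compl, Set.ncard_union_eq ?_ hFfin (Set.toFinite _), hF5, Set.ncard_pair hab,
      h13]
    rw [Set.disjoint_left]
    rintro x hx (rfl | rfl)
    · exact hab (hua.symm.trans hx).symm
    · exact hab (hub.symm.trans hx)
  have hMm : ∀ x ∈ M, u • x ≠ x ∧ x ≠ e 0 ∧ x ≠ e 1 ∧ u • x ∈ M := by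
    intro x hx
    simp only [hM, hF, Set.mem_compl_iff, Set.mem_union, Set.mem_setOf_eq, Set.mem_insert_iff,
      Set.mem_singleton_iff, not_or] at hx ⊢
    refine ⟨hx.1, hx.2.1, hx.2.2, fun h => hx.1 (MulAction.injective u h), fun h => hx.2.2 ?_,
      fun h => hx.2.1 ?_⟩
    · rw [← hua, ← h, huu]
    · rw [← hub, ← h, huu]
  obtain ⟨c, hc⟩ : M.Nonempty := Set.nonempty_of_ncard_ne_zero (by omega)
  obtain ⟨d, hd, hdc, hduc⟩ : ∃ d ∈ M, d ≠ c ∧ d ≠ u • c := by
    obtain ⟨d, hd, hd'⟩ := Set.exists_mem_notMem_of_ncard_lt_ncard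
      (show ({c, u • c} : Set Ω).ncard < M.ncard by
        rw [Set.ncard_pair (Ne.symm (hMm c hc).1), hMc]; omega) (Set.toFinite _)
    simp only [Set.mem_insert_iff, Set.mem_singleton_iff, not_or] at hd'
    exact ⟨d, hd, hd'.1, hd'.2⟩
  obtain ⟨hc1, hc2, hc3, hc4⟩ := hMm c hc
  obtain ⟨hd1, hd2, hd3, hd4⟩ := hMm d hd
  obtain ⟨-, hc2', hc3', -⟩ := hMm _ hc4
  obtain ⟨-, hd2', hd3', -⟩ := hMm _ hd4
  have hbase : Function.Injective ![e 0, e 1, c, u • c, d, u • d] := by
    have h1 : c ≠ u • d := fun h => hduc (by rw [h, huu])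
    have h2 : u • c ≠ u • d := fun h => hdc (MulAction.injective u h).symm
    exact injective_of_nodup _ (by
      simp [List.ofFn_succ, hab, hc2.symm, hc3.symm, hc2'.symm, hc3'.symm, hd2.symm, hd3.symm,
        hd2'.symm, hd3'.symm, hc1.symm, hd1.symm, hdc.symm, hduc.symm, h1, h2])
  have hqe : Function.Injective ![e 0, e 1, e 2, e 3, e 4, e 5] :=
    injective_of_nodup _ (by simp [List.ofFn_succ, e.injective.eq_iff])
  have hn : ∀ x : F, e 0 ≠ (x : Ω) ∧ e 1 ≠ (x : Ω) := fun x => by
    have h2 : u • (x : Ω) = x := x.2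
    exact ⟨fun h => hab (by rw [← h, hua] at h2; exact h2.symm),
      fun h => hab (by rw [← h, hub] at h2; exact h2)⟩
  have hex : ∀ p : Fin 4 ↪ F, ∃ g : G, g * u = u * g ∧ g • e 0 = e 0 ∧
      g • e 2 = p 0 ∧ g • e 3 = p 1 ∧ g • e 4 = p 2 ∧ g • e 5 = p 3 := by
    intro p
    have hinj : Function.Injective ![e 0, e 1, (p 0 : Ω), (p 1 : Ω), (p 2 : Ω), (p 3 : Ω)] :=
      injective_of_nodup _ (by
        simp [List.ofFn_succ, hab, (hn (p 0)).1, (hn (p 0)).2, (hn (p 1)).1, (hn (p 1)).2,
          (hn (p 2)).1, (hn (p 2)).2, (hn (p 3)).1, (hn (p 3)).2,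
          Subtype.coe_injective.eq_iff, p.injective.eq_iff])
    obtain ⟨g, hg⟩ := S.move _ _ hqe hinj
    have g0 : g • e 0 = e 0 := hg 0
    have g1 : g • e 1 = e 1 := hg 1
    have g2 : g • e 2 = (p 0 : Ω) := hg 2
    have g3 : g • e 3 = (p 1 : Ω) := hg 3
    have g4 : g • e 4 = (p 2 : Ω) := hg 4
    have g5 : g • e 5 = (p 3 : Ω) := hg 5
    have hp : ∀ i, u • (p i : Ω) = p i := fun i => (p i).2
    refine ⟨g, S.uniq _ _ _ hqe (fun i => ?_), g0, g2, g3, g4, g5⟩
    fin_cases i <;> simp [mul_smul, g0, g1, g2, g3, g4, g5, hua, hub, huc, hud, hue, huf, hp]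
  choose f hfu hf0 hf2 hf3 hf4 hf5 using hex
  have hfM : ∀ p, ∀ x ∈ M, f p • x ∈ M := by
    intro p x hx
    obtain ⟨h1, h2, h3, -⟩ := hMm x hx
    have hb : f p • e 1 = e 1 := by rw [← hua, ← mul_smul, hfu, mul_smul, hf0]
    simp only [hM, hF, Set.mem_compl_iff, Set.mem_union, Set.mem_setOf_eq, Set.mem_insert_iff,
      Set.mem_singleton_iff, not_or]
    refine ⟨fun h => h1 (MulAction.injective (f p) ?_), fun h => h2 (MulAction.injective (f p) ?_),
      fun h => h3 (MulAction.injective (f p) ?_)⟩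
    · show f p • u • x = f p • x
      rw [← mul_smul, hfu, mul_smul, h]
    · exact h.trans (hf0 p).symm
    · exact h.trans hb.symm
  have hinj : Function.Injective fun p : Fin 4 ↪ F =>
      ((⟨f p • c, hfM p c hc⟩, ⟨f p • d, hfM p d hd⟩) : M × M) := by
    intro p q h
    simp only [Prod.mk.injEq, Subtype.mk.injEq] at h
    have hb : ∀ p, f p • e 1 = e 1 := fun p => by
      rw [← hua, ← mul_smul, hfu, mul_smul, hf0]
    have hfu' : ∀ (p : Fin 4 ↪ F) (x : Ω), f p • u • x = u • f p • x := fun p x => by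
      rw [← mul_smul, hfu, mul_smul]
    have heq : f p = f q := S.uniq _ _ _ hbase fun i => by
      fin_cases i <;> simp [hf0, hb, h.1, h.2, hfu']
    ext i
    fin_cases i
    · show (p 0 : Ω) = q 0; rw [← hf2, ← hf2, heq]
    · show (p 1 : Ω) = q 1; rw [← hf3, ← hf3, heq]
    · show (p 2 : Ω) = q 2; rw [← hf4, ← hf4, heq]
    · show (p 3 : Ω) = q 3; rw [← hf5, ← hf5, heq]
  haveI : Fintype F := Fintype.ofFinite _
  have h := Nat.card_le_card_of_injective _ hinj
  rw [Nat.card_prod, Nat.card_eq_fintype_card (α := Fin 4 ↪ F), Fintype.card_embedding_eq,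
    Fintype.card_fin, ← Nat.card_eq_fintype_card (α := F), Nat.card_coe_set_eq,
    Nat.card_coe_set_eq, hF5, hMc] at h
  norm_num [Nat.descFactorial] at h

theorem large : ∀ (k : ℕ), 6 ≤ k → ∀ {G : Type u} {Ω : Type v} [Group G] [MulAction G Ω] [Finite Ω],
    Sharp G Ω k → k ≤ Nat.card Ω →
      Nat.card Ω = k ∨ Nat.card Ω = k + 1 ∨ Nat.card Ω = k + 2 := by
  intro k hk
  induction k, hk using Nat.le_induction with
  | base =>
    intro G Ω _ _ _ S h6
    haveI : Nonempty Ω := (Nat.card_pos_iff.1 (by omega)).1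
    obtain ⟨a⟩ := (inferInstance : Nonempty Ω)
    have hc : Nat.card (SubMulAction.ofStabilizer G a) = Nat.card Ω - 1 := by
      show Nat.card ({a}ᶜ : Set Ω) = _
      rw [Nat.card_coe_set_eq, Set.ncard_compl, Set.ncard_singleton]
    haveI : Finite (SubMulAction.ofStabilizer G a) := inferInstanceAs (Finite ({a}ᶜ : Set Ω))
    rcases five (S.stabilizer a) (by omega) with h | h
    · omega
    · exact (not_six_thirteen S (by omega)).elim
  | succ k hk ih =>
    intro G Ω _ _ _ S hle
    obtain ⟨a⟩ : Nonempty Ω := (Nat.card_pos_iff.1 (by omega)).1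
    have hc : Nat.card (SubMulAction.ofStabilizer G a) = Nat.card Ω - 1 := by
      show Nat.card ({a}ᶜ : Set Ω) = _
      rw [Nat.card_coe_set_eq, Set.ncard_compl, Set.ncard_singleton]
    haveI : Finite (SubMulAction.ofStabilizer G a) := inferInstanceAs (Finite ({a}ᶜ : Set Ω))
    rcases ih (S.stabilizer a) (by omega) with h | h | h <;> omega

end Cfsg.Agent.SharplyTrans
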