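import Mathlib
import Cfsg.Agent.SharplyTrans.Main

/-!
The degree statements in the form of the list.
-/

set_option autoImplicit false

namespace Cfsg.Agent.SharplyTrans

theorem four_degrees {G Ω : Type*} [Group G] [MulAction G Ω] [Fintype Ω] (S : Sharp G Ω 4)
    (h4 : 4 ≤ Fintype.card Ω) :
    Fintype.card Ω = 4 ∨ Fintype.card Ω = 5 ∨ Fintype.card Ω = 6 ∨ Fintype.card Ω = 11 := by
  obtain ⟨-, h⟩ := four S (Function.Embedding.nonempty_of_card_le (by rwa [Fintype.card_fin]))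
  rw [Nat.card_eq_fintype_card] at h
  omega

theorem five_degrees {G Ω : Type*} [Group G] [MulAction G Ω] [Fintype Ω] (S : Sharp G Ω 5)
    (h5 : 5 ≤ Fintype.card Ω) :
    Fintype.card Ω = 5 ∨ Fintype.card Ω = 6 ∨ Fintype.card Ω = 7 ∨ Fintype.card Ω = 12 := by
  have h := five S (by rwa [Nat.card_eq_fintype_card])
  rw [Nat.card_eq_fintype_card] at h
  omega

theorem large_degrees {G Ω : Type*} [Group G] [MulAction G Ω] [Fintype Ω] {k : ℕ} (hk : 6 ≤ k)
    (S : Sharp G Ω k) (hn : k ≤ Fintype.card Ω) :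
    Fintype.card Ω = k ∨ Fintype.card Ω = k + 1 ∨ Fintype.card Ω = k + 2 := by
  have h := large k hk S (by rwa [Nat.card_eq_fintype_card])
  rwa [Nat.card_eq_fintype_card] at h

theorem tits {G Ω : Type*} [Group G] [MulAction G Ω] (S : Sharp G Ω 4)
    (hne : Nonempty (Fin 4 ↪ Ω)) :
    Finite Ω ∧ Nat.card Ω ≤ 11 ∧ (Even (Nat.card Ω) → Nat.card Ω ≤ 6) := by
  obtain ⟨hf, h | h⟩ := four S hne
  · exact ⟨hf, by omega, fun _ => h⟩
  · exact ⟨hf, h.le, fun he => absurd he (by rw [h]; decide)⟩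

end Cfsg.Agent.SharplyTrans
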