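import Mathlib
import Cfsg.Agent.SharplyTrans.Main

/-!
Simplicity of sharply 4-transitive groups of degree 11 and sharply 5-transitive groups of degree 12.
-/

set_option autoImplicit false
set_option maxHeartbeats 1000000

namespace Cfsg.Agent.SharplyTrans

open MulAction

universe u v

variable {G : Type u} {Ω : Type v} [Group G] [MulAction G Ω]

theorem Sharp.isMultiplyPretransitive {k : ℕ} (S : Sharp G Ω k) :
    MulAction.IsMultiplyPretransitive G Ω k :=
  ⟨fun x y => by
    obtain ⟨g, hg⟩ := S.move x y x.injective y.injective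
    exact ⟨g, Function.Embedding.ext hg⟩⟩

theorem Sharp.faithful {k : ℕ} (S : Sharp G Ω k) [Finite Ω] (hk : k ≤ Nat.card Ω) :
    FaithfulSMul G Ω := by
  classical
  haveI : Fintype Ω := Fintype.ofFinite _
  obtain ⟨x⟩ : Nonempty (Fin k ↪ Ω) := Function.Embedding.nonempty_of_card_le
    (by rwa [Fintype.card_fin, ← Nat.card_eq_fintype_card])
  exact ⟨fun h => S.uniq _ _ x x.injective fun i => h (x i)⟩

/-- A nontrivial normal subgroup of a doubly transitive faithful group is transitive. -/
theorem transitive_normal [Finite Ω] [FaithfulSMul G Ω] [MulAction.IsMultiplyPretransitive G Ω 2]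
    (N : Subgroup G) [N.Normal] (hN : N ≠ ⊥) : MulAction.IsPretransitive N Ω := by
  haveI : MulAction.IsPreprimitive G Ω :=
    MulAction.isPreprimitive_of_is_two_pretransitive inferInstance
  obtain ⟨g, hg, hg1⟩ := N.bot_or_exists_ne_one.resolve_left hN
  refine MulAction.IsQuasiPreprimitive.isPretransitive_of_normal fun h => hg1 ?_
  refine eq_of_smul_eq_smul (α := Ω) fun x => ?_
  rw [one_smul]
  have hx : x ∈ MulAction.fixedPoints N Ω := by rw [h]; trivial
  exact hx ⟨g, hg⟩

theorem card_dvd_of_transitive [Finite Ω] [Nonempty Ω] (N : Subgroup G) [Finite N]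
    [MulAction.IsPretransitive N Ω] : Nat.card Ω ∣ Nat.card N := by
  obtain ⟨a⟩ := ‹Nonempty Ω›
  rw [← MulAction.index_stabilizer_of_transitive N a]
  exact Subgroup.index_dvd_card _

/-- A sharply 4-transitive group of degree 11 is simple of order 7920. -/
theorem simple_eleven (S : Sharp G Ω 4) [Finite Ω] (h11 : Nat.card Ω = 11) :
    IsSimpleGroup G ∧ Nat.card G = 7920 := by
  classical
  haveI hne : Nonempty Ω := (Nat.card_pos_iff.1 (by omega)).1
  haveI := S.faithful (by omega)
  haveI h4 := S.isMultiplyPretransitive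
  haveI : MulAction.IsMultiplyPretransitive G Ω 2 :=
    MulAction.isMultiplyPretransitive_of_le (n := 4) (by norm_num)
      (by rw [h11]; norm_num)
  have hG : Nat.card G = 7920 := by
    rw [S.card_eq (by omega), h11]
    rfl
  haveI : Finite G := Nat.finite_of_card_ne_zero (by omega)
  haveI : Nontrivial G := Finite.one_lt_card_iff_nontrivial.1 (by omega)
  refine ⟨⟨fun N hN => ?_⟩, hG⟩
  by_contra hcon
  push Not at hcon
  obtain ⟨hbot, htop⟩ := hcon
  haveI := Fact.mk (show Nat.Prime 11 by norm_num)
  have hN11 : ∀ M : Subgroup G, M.Normal → M ≠ ⊥ → 11 ∣ Nat.card M := by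
    intro M hM hMb
    haveI := transitive_normal (Ω := Ω) M hMb
    exact h11 ▸ card_dvd_of_transitive (Ω := Ω) M
  obtain ⟨Q⟩ : Nonempty (Sylow 11 N) := inferInstance
  set P : Subgroup G := (Q : Subgroup N).map N.subtype with hP
  have hQ11 : Nat.card (Q : Subgroup N) = 11 := by
    rw [Q.card_eq_multiplicity]
    have h1 : (Nat.card N).factorization 11 ≤ 1 := by
      by_contra h
      have h2 : 11 ^ 2 ∣ Nat.card G :=
        ((pow_dvd_pow 11 (not_le.1 h)).trans (Nat.ordProj_dvd _ _)).trans
          (Subgroup.card_subgroup_dvd_card N)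
      rw [hG] at h2
      norm_num at h2
    have h2 : 1 ≤ (Nat.card N).factorization 11 :=
      (Nat.Prime.dvd_iff_one_le_factorization (by norm_num) (Nat.card_pos.ne')).1
        (hN11 N hN hbot)
    rw [le_antisymm h1 h2, pow_one]
  have hP11 : Nat.card P = 11 := by
    rw [hP, Subgroup.card_map_of_injective N.subtype_injective, hQ11]
  have hfrat : Subgroup.normalizer (P : Set G) ⊔ N = ⊤ := Q.normalizer_sup_eq_top
  -- the centralizer of an eleven cycle
  have hCle : Nat.card (Subgroup.centralizer (P : Set G)) ≤ 11 := by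
    obtain ⟨x, hx, hx1⟩ := P.bot_or_exists_ne_one.resolve_left
      (fun h => by rw [h, Subgroup.card_bot] at hP11; omega)
    haveI : MulAction.IsPretransitive P Ω := by
      have hxo : orderOf x = 11 := by
        have h1 : orderOf x ∣ 11 := hP11 ▸ Subgroup.orderOf_dvd_natCard _ hx
        exact ((Nat.dvd_prime (by norm_num)).1 h1).resolve_left
          (fun h => hx1 (orderOf_eq_one_iff.1 h))
      obtain ⟨a, ha⟩ : ∃ a : Ω, x • a ≠ a := by
        by_contra h
        push Not at h
        exact hx1 (eq_of_smul_eq_smul (α := Ω) fun a => by rw [h a, one_smul])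
      have hst : MulAction.stabilizer P a = ⊥ := by
        haveI : Fact (Nat.card P).Prime := ⟨hP11.symm ▸ (by norm_num)⟩
        rcases (MulAction.stabilizer P a).eq_bot_or_eq_top_of_prime_card with h | h
        · exact h
        · exact absurd (show (⟨x, hx⟩ : P) ∈ MulAction.stabilizer P a by rw [h]; trivial) ha
      have horb : MulAction.orbit P a = Set.univ := by
        refine Set.eq_of_subset_of_ncard_le (Set.subset_univ _) ?_ (Set.toFinite _)
        rw [Set.ncard_univ, h11, ← MulAction.index_stabilizer, hst, Subgroup.index_bot, hP11]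
      refine ⟨fun b c => ?_⟩
      have hb : b ∈ MulAction.orbit P a := horb ▸ Set.mem_univ b
      have hc : c ∈ MulAction.orbit P a := horb ▸ Set.mem_univ c
      obtain ⟨g, rfl⟩ := hb
      obtain ⟨h, rfl⟩ := hc
      exact ⟨h * g⁻¹, by simp [mul_smul]⟩
    obtain ⟨a⟩ := hne
    rw [← h11]
    refine Nat.card_le_card_of_injective
      (fun c : Subgroup.centralizer (P : Set G) => (c : G) • a) fun c d h => ?_
    refine Subtype.ext (eq_of_smul_eq_smul (α := Ω) fun b => ?_)
    obtain ⟨y, rfl⟩ := MulAction.exists_smul_eq P a b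
    show (c : G) • (y : G) • a = (d : G) • (y : G) • a
    rw [← mul_smul, ← mul_smul, ← Subgroup.mem_centralizer_iff.1 c.2 y y.2,
      ← Subgroup.mem_centralizer_iff.1 d.2 y y.2, mul_smul, mul_smul]
    exact congrArg _ h
  have hNle : Nat.card (Subgroup.normalizer (P : Set G)) ≤ 110 := by
    let φ := Subgroup.normalizerMonoidHom P
    have hk : φ.ker = (Subgroup.centralizer (P : Set G)).subgroupOf
        (Subgroup.normalizer (P : Set G)) := Subgroup.normalizerMonoidHom_ker P
    have h1 := φ.ker.card_mul_index
    rw [Subgroup.index_ker, hk,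
      Nat.card_congr (Subgroup.subgroupOfEquivOfLe (Subgroup.centralizer_le_normalizer _)).toEquiv] at h1
    rw [← h1]
    haveI : IsCyclic P := isCyclic_of_prime_card hP11
    have hrange : Nat.card φ.range ≤ 10 := by
      refine (Nat.le_of_dvd Nat.card_pos (Subgroup.card_subgroup_dvd_card _)).trans (le_of_eq ?_)
      rw [IsCyclic.card_mulAut, hP11]
      rfl
    exact (Nat.mul_le_mul hCle hrange).trans (by norm_num)
  -- the order of the normalizer
  obtain ⟨R, hR⟩ : ∃ R : Sylow 11 G, (R : Subgroup G) = P := by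
    refine ⟨Sylow.ofCard P ?_, rfl⟩
    rw [hP11, hG]
    have : Nat.factorization 7920 11 = 1 := by
      rw [Nat.factorization_def _ (by norm_num : Nat.Prime 11),
        show (7920 : ℕ) = 11 * 720 by norm_num, padicValNat.mul (by norm_num) (by norm_num),
        padicValNat.self (by norm_num), padicValNat.eq_zero_of_not_dvd (by norm_num)]
    rw [this, pow_one]
  have hindex : (Subgroup.normalizer (P : Set G)).index % 11 = 1 := by
    have h1 := card_sylow_modEq_one 11 G
    rw [Sylow.card_eq_index_normalizer R] at h1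
    change (Subgroup.normalizer ((R : Subgroup G) : Set G)).index ≡ 1 [MOD 11] at h1
    rw [hR] at h1
    exact h1
  have h55 : Nat.card (Subgroup.normalizer (P : Set G)) = 55 := by
    have h1 := (Subgroup.normalizer (P : Set G)).card_mul_index
    rw [hG] at h1
    have hd : 11 ∣ Nat.card (Subgroup.normalizer (P : Set G)) :=
      hP11 ▸ Subgroup.card_dvd_of_le Subgroup.le_normalizer
    obtain ⟨t, ht⟩ := hd
    rw [ht] at h1 hNle ⊢
    have ht10 : t ≤ 10 := by omega
    interval_cases t <;> omega
  have hdvd : N.index ∣ 5 := by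
    have h1 : N.index = N.relIndex (Subgroup.normalizer (P : Set G)) := by
      rw [← Subgroup.relIndex_top_right N, ← hfrat, Subgroup.relIndex_sup_right]
    have h2 := (N.subgroupOf (Subgroup.normalizer (P : Set G))).card_mul_index
    rw [h55, show (N.subgroupOf (Subgroup.normalizer (P : Set G))).index = N.index from h1.symm] at h2
    have h3 : 11 ∣ Nat.card (N.subgroupOf (Subgroup.normalizer (P : Set G))) := by
      have h4 : P.subgroupOf (Subgroup.normalizer (P : Set G)) ≤
          N.subgroupOf (Subgroup.normalizer (P : Set G)) :=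
        fun y hy => Subgroup.mem_subgroupOf.2
          (Subgroup.map_subtype_le _ (Subgroup.mem_subgroupOf.1 hy))
      have h5 := Subgroup.card_dvd_of_le h4
      rwa [Nat.card_congr (Subgroup.subgroupOfEquivOfLe Subgroup.le_normalizer).toEquiv, hP11] at h5
    obtain ⟨t, ht⟩ := h3
    rw [ht, mul_assoc] at h2
    exact Dvd.intro_left t (Nat.eq_of_mul_eq_mul_left (by norm_num : 0 < 11) (h2.trans (by norm_num : 55 = 11 * 5)))
  have hN5 : N.index = 5 := ((Nat.dvd_prime (by norm_num)).1 hdvd).resolve_left
    (fun h => htop (Subgroup.index_eq_one.1 h))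
  -- a normal complement inside `N`
  have hQN : Nat.card (Subgroup.normalizer ((Q : Subgroup N) : Set N)) = 11 := by
    have h1 : Nat.card (Subgroup.normalizer ((Q : Subgroup N) : Set N)) =
        Nat.card (N.subgroupOf (Subgroup.normalizer (P : Set G))) := by
      refine Nat.card_congr
        { toFun := fun y => ⟨⟨(y.1 : G), Subgroup.le_normalizer_map N.subtype ⟨y.1, y.2, rfl⟩⟩, y.1.2⟩
          invFun := fun y => ⟨⟨(y.1 : G), y.2⟩, ?_⟩
          left_inv := fun y => rfl
          right_inv := fun y => rfl }
      rw [Subgroup.mem_normalizer_iff]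
      intro h
      have h2 := Subgroup.mem_normalizer_iff.1 y.1.2 (h : G)
      constructor
      · intro hh
        obtain ⟨z, hz, hze⟩ := h2.1 ⟨h, hh, rfl⟩
        exact (show z = ⟨(y.1 : G), y.2⟩ * h * ⟨(y.1 : G), y.2⟩⁻¹ from Subtype.ext hze) ▸ hz
      · intro hh
        obtain ⟨z, hz, hze⟩ := h2.2 ⟨_, hh, rfl⟩
        exact (show z = h from Subtype.ext hze) ▸ hz
    have h2 := (N.subgroupOf (Subgroup.normalizer (P : Set G))).card_mul_index
    have h3 : (N.subgroupOf (Subgroup.normalizer (P : Set G))).index = 5 := by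
      rw [← hN5]
      show N.relIndex _ = _
      rw [← Subgroup.relIndex_top_right N, ← hfrat, Subgroup.relIndex_sup_right]
    rw [h55, h3] at h2
    rw [h1]; omega
  have hcomm : Subgroup.normalizer ((Q : Subgroup N) : Set N) ≤
      Subgroup.centralizer ((Q : Subgroup N) : Set N) := by
    have heq : (Q : Subgroup N) = Subgroup.normalizer ((Q : Subgroup N) : Set N) :=
      Subgroup.eq_of_le_of_card_ge Subgroup.le_normalizer (by rw [hQN, hQ11])
    haveI : IsCyclic (Q : Subgroup N) := isCyclic_of_prime_card hQ11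
    rw [← heq]
    intro y hy
    rw [Subgroup.mem_centralizer_iff]
    intro z hz
    exact congrArg Subtype.val
      ((IsCyclic.commutative (α := (Q : Subgroup N))).is_comm.comm ⟨z, hz⟩ ⟨y, hy⟩)
  set K := (MonoidHom.transferSylow Q hcomm).ker with hK
  have hcompl := MonoidHom.ker_transferSylow_isComplement' Q hcomm
  have hNc : Nat.card N = 1584 := by
    have h := N.card_mul_index
    rw [hG, hN5] at h
    omega
  have hKc : Nat.card K = 144 := by
    have h : Nat.card K * Nat.card (Q : Subgroup N) = Nat.card N := hcompl.card_mul_card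
    rw [hQ11, hNc] at h
    omega
  have hKchar : K.Characteristic := by
    refine Subgroup.characteristic_iff_comap_eq.2 fun φ => ?_
    have h2 : ∀ y : N, y ∈ K ↔ (orderOf y).Coprime 11 := fun y => by
      constructor
      · intro hy
        exact Nat.Coprime.coprime_dvd_left (Subgroup.orderOf_dvd_natCard K hy) (by rw [hKc]; norm_num)
      · intro hy
        rw [← QuotientGroup.eq_one_iff]
        refine orderOf_eq_one_iff.1 (Nat.eq_one_of_dvd_coprimes hy
          (orderOf_map_dvd (QuotientGroup.mk' K) y) ?_)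
        have hi : K.index = 11 := by
          have h := K.card_mul_index
          rw [hKc, hNc] at h
          omega
        exact (orderOf_dvd_natCard _).trans hi.dvd
    ext y
    rw [Subgroup.mem_comap, h2, h2]
    exact iff_of_eq (by rw [show φ.toMonoidHom y = φ y from rfl, MulEquiv.orderOf_eq])
  haveI := hKchar
  haveI : (K.map N.subtype).Normal := ConjAct.normal_of_characteristic_of_normal
  have h := hN11 (K.map N.subtype) inferInstance (fun h => by
    rw [Subgroup.map_eq_bot_iff_of_injective _ N.subtype_injective] at h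
    rw [h, Subgroup.card_bot] at hKc
    omega)
  rw [Subgroup.card_map_of_injective N.subtype_injective, hKc] at h
  norm_num at h

/-- A sharply 5-transitive group of degree 12 is simple of order 95040. -/
theorem simple_twelve (S : Sharp G Ω 5) [Finite Ω] (h12 : Nat.card Ω = 12) :
    IsSimpleGroup G ∧ Nat.card G = 95040 := by
  classical
  haveI hne : Nonempty Ω := (Nat.card_pos_iff.1 (by omega)).1
  haveI := S.faithful (by omega)
  haveI h5 := S.isMultiplyPretransitive
  haveI : MulAction.IsMultiplyPretransitive G Ω 2 :=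
    MulAction.isMultiplyPretransitive_of_le (n := 5) (by norm_num) (by rw [h12]; norm_num)
  have hG : Nat.card G = 95040 := by rw [S.card_eq (by omega), h12]; rfl
  haveI : Finite G := Nat.finite_of_card_ne_zero (by omega)
  haveI : Nontrivial G := Finite.one_lt_card_iff_nontrivial.1 (by omega)
  refine ⟨⟨fun N hN => ?_⟩, hG⟩
  by_cases hbot : N = ⊥
  · exact Or.inl hbot
  right
  haveI := hN
  haveI hNt := transitive_normal (Ω := Ω) N hbot
  obtain ⟨a⟩ := hne
  haveI : Finite (SubMulAction.ofStabilizer G a) := inferInstanceAs (Finite ({a}ᶜ : Set Ω))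
  have hc : Nat.card (SubMulAction.ofStabilizer G a) = 11 := by
    show Nat.card ({a}ᶜ : Set Ω) = _
    rw [Nat.card_coe_set_eq, Set.ncard_compl, Set.ncard_singleton, h12]
  obtain ⟨hsimp, -⟩ := simple_eleven (S.stabilizer a) hc
  rcases hsimp.eq_bot_or_eq_top_of_normal (N.subgroupOf (MulAction.stabilizer G a)) inferInstance
    with h | h
  · -- `N` would be regular
    exfalso
    have hreg : ∀ n ∈ N, n • a = a → n = 1 := fun n hn hna => by
      have : (⟨n, hna⟩ : MulAction.stabilizer G a) ∈ N.subgroupOf (MulAction.stabilizer G a) :=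
        Subgroup.mem_subgroupOf.2 hn
      rw [h, Subgroup.mem_bot] at this
      exact congrArg Subtype.val this
    have hNcard : Nat.card N = 12 := by
      rw [← h12]
      refine Nat.card_congr (Equiv.ofBijective (fun n : N => (n : G) • a) ⟨fun n m e => ?_, fun b => ?_⟩)
      · refine Subtype.ext (inv_mul_eq_one.1 (hreg _ (N.mul_mem (N.inv_mem n.2) m.2) ?_))
        show ((n : G)⁻¹ * m) • a = a
        rw [mul_smul, inv_smul_eq_iff]
        exact e.symm
      · exact MulAction.exists_smul_eq N a b
    haveI := Fact.mk (show Nat.Prime 2 by norm_num)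
    haveI := Fact.mk (show Nat.Prime 3 by norm_num)
    obtain ⟨x, hx⟩ := exists_prime_orderOf_dvd_card' 2 (hNcard ▸ (by norm_num) : 2 ∣ Nat.card N)
    obtain ⟨y, hy⟩ := exists_prime_orderOf_dvd_card' 3 (hNcard ▸ (by norm_num) : 3 ∣ Nat.card N)
    have hxa : ∀ n : N, n ≠ 1 → a ≠ (n : G) • a := fun n hn e =>
      hn (Subtype.ext (hreg _ n.2 e.symm))
    have hx1 : x ≠ 1 := fun e => by rw [e, orderOf_one] at hx; omega
    have hy1 : y ≠ 1 := fun e => by rw [e, orderOf_one] at hy; omega
    obtain ⟨g, hga, hgx⟩ := (MulAction.is_two_pretransitive_iff (G := G) (α := Ω)).1 inferInstance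
      (hxa x hx1) (hxa y hy1)
    have hconj : g * (x : G) * g⁻¹ = y := by
      have hmem : (y : G)⁻¹ * (g * x * g⁻¹) ∈ N :=
        N.mul_mem (N.inv_mem y.2) (hN.conj_mem _ x.2 g)
      refine (inv_mul_eq_one.1 (hreg _ hmem ?_)).symm
      have hga' : g⁻¹ • a = a := by rw [inv_smul_eq_iff, hga]
      rw [mul_smul, mul_smul, mul_smul, hga', hgx, inv_smul_smul]
    have : orderOf (x : G) = orderOf (y : G) := by
      rw [← hconj]
      exact ((MulAut.conj g).orderOf_eq (x : G)).symm
    rw [Subgroup.orderOf_coe, Subgroup.orderOf_coe, hx, hy] at this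
    omega
  · rw [eq_top_iff]
    intro g _
    obtain ⟨n, hn⟩ := MulAction.exists_smul_eq N a (g • a)
    have h1 : ((n : G))⁻¹ * g ∈ MulAction.stabilizer G a := by
      rw [MulAction.mem_stabilizer_iff, mul_smul, inv_smul_eq_iff]
      exact hn.symm
    have h2 : (⟨_, h1⟩ : MulAction.stabilizer G a) ∈ N.subgroupOf (MulAction.stabilizer G a) := by
      rw [h]; trivial
    simpa using N.mul_mem n.2 (Subgroup.mem_subgroupOf.1 h2)

end Cfsg.Agent.SharplyTrans
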